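import Mathlib
import Cfsg.Agent.Lib.Lead.Ami.Defs

/-!
# Project AMI (S4294), package [DIR]: Dirichlet + CRT.
For a prime `p ≥ 7` there is a prime `l ≡ 3 (mod 20)` with `p ∣ l + 1`.
-/

set_option autoImplicit false

namespace Cfsg.Agent.Lib.Helper20.Ami

open Cfsg.Agent.Lib.Lead.Ami

theorem pkgDir : PkgDir := by
  intro p hp h7
  have hco : Nat.Coprime 20 p := by
    rw [Nat.coprime_comm]
    apply (Nat.Prime.coprime_iff_not_dvd hp).mpr
    intro hdvd
    have hle := Nat.le_of_dvd (by norm_num) hdvd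
    interval_cases p <;> first | (exfalso; revert hdvd; decide) | (exfalso; norm_num at hp)
  obtain ⟨k, hk20, hkp⟩ := Nat.chineseRemainder hco 3 (p - 1)
  have hk1 : Nat.Coprime k 20 := by
    have h := hk20.gcd_eq
    unfold Nat.Coprime
    rw [h]
    decide
  have hk2 : Nat.Coprime k p := by
    have h := hkp.gcd_eq
    unfold Nat.Coprime
    rw [h]
    have h3 : Nat.Coprime p (p - 1) :=
      (Nat.Prime.coprime_iff_not_dvd hp).mpr (Nat.not_dvd_of_pos_of_lt (by omega) (by omega))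
    exact h3.symm
  have hq : 20 * p ≠ 0 := by
    have := hp.pos
    omega
  obtain ⟨l, -, hl, hlk⟩ := Nat.forall_exists_prime_gt_and_modEq 0 hq (Nat.Coprime.mul_right hk1 hk2)
  refine ⟨l, hl, ?_, ?_⟩
  · have h1 : l ≡ 3 [MOD 20] := (Nat.ModEq.of_mul_right p hlk).trans hk20
    exact h1
  · have h2 : l ≡ p - 1 [MOD p] := (Nat.ModEq.of_mul_left 20 hlk).trans hkp
    have h3 : l + 1 ≡ (p - 1) + 1 [MOD p] := Nat.ModEq.add_right 1 h2
    have h4 : p - 1 + 1 = p := by omega
    rw [h4] at h3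
    have h5 : p ≡ 0 [MOD p] := by
      unfold Nat.ModEq
      simp
    exact (Nat.modEq_zero_iff_dvd).mp (h3.trans h5)

end Cfsg.Agent.Lib.Helper20.Ami
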